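import Mathlib
import Cfsg.Prelude.Def_SporadicCombinatorics

set_option autoImplicit false

namespace CfsgLib.TernaryCode

/-- Coordinates of the length-12 ternary code. -/
abbrev Coord : Type := ZMod 3 × ZMod 3 × ZMod 3 × ZMod 3 × ZMod 3 × ZMod 3

/-- The word with the given coordinates. -/
def enc : Coord → Cfsg.ArrayPt → ZMod 3
  | (a, b, c, d, e, f), (i, r) => (![![a, b, c], ![d, e, a + b + c + 2 * d + 2 * e], ![f, 2 * b + c + 2 * d + e + f, a + 2 * b + d + 2 * e + f], ![a + 2 * b + 2 * c + 2 * d + 2 * f, a + c + d + e + 2 * f, 2 * a + 2 * b + c + 2 * e + 2 * f]] : Fin 4 → Fin 3 → ZMod 3) i r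

theorem eq_enc {x : Cfsg.ArrayPt → ZMod 3} (hx : x ∈ Cfsg.ternaryGolayCode) :
    x = enc (x (0, 0), x (0, 1), x (0, 2), x (1, 0), x (1, 1), x (2, 0)) := by
  obtain ⟨s, hc, ht⟩ := hx
  have hm : ∀ a b : ZMod 3, a • (![0, 1, 1, 1] : Fin 4 → ZMod 3) + b • ![1, 0, 1, 2] ∈ Cfsg.tetracode := fun a b =>
    Submodule.mem_span_pair.2 ⟨a, b, rfl⟩
  have q0 : x (0, 0) + x (0, 1) + x (0, 2) = -s := (Fin.sum_univ_three _).symm.trans (hc 0)
  have q1 : x (1, 0) + x (1, 1) + x (1, 2) = -s := (Fin.sum_univ_three _).symm.trans (hc 1)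
  have q2 : x (2, 0) + x (2, 1) + x (2, 2) = -s := (Fin.sum_univ_three _).symm.trans (hc 2)
  have q3 : x (3, 0) + x (3, 1) + x (3, 2) = -s := (Fin.sum_univ_three _).symm.trans (hc 3)
  have q4 : x (0, 0) + x (1, 0) + x (2, 0) + x (3, 0) = s := by
    have h := ht _ (hm 0 0)
    rw [Fin.sum_univ_four] at h
    exact h
  have q5 : x (0, 1) + x (1, 0) + x (2, 1) + x (3, 2) = s := by
    have h := ht _ (hm 0 1)
    rw [Fin.sum_univ_four] at h
    exact h
  have q6 : x (0, 2) + x (1, 0) + x (2, 2) + x (3, 1) = s := by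
    have h := ht _ (hm 0 2)
    rw [Fin.sum_univ_four] at h
    exact h
  have q7 : x (0, 0) + x (1, 1) + x (2, 1) + x (3, 1) = s := by
    have h := ht _ (hm 1 0)
    rw [Fin.sum_univ_four] at h
    exact h
  have q8 : x (0, 1) + x (1, 1) + x (2, 2) + x (3, 0) = s := by
    have h := ht _ (hm 1 1)
    rw [Fin.sum_univ_four] at h
    exact h
  have q9 : x (0, 2) + x (1, 1) + x (2, 0) + x (3, 2) = s := by
    have h := ht _ (hm 1 2)
    rw [Fin.sum_univ_four] at h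
    exact h
  have q10 : x (0, 0) + x (1, 2) + x (2, 2) + x (3, 2) = s := by
    have h := ht _ (hm 2 0)
    rw [Fin.sum_univ_four] at h
    exact h
  have q11 : x (0, 1) + x (1, 2) + x (2, 0) + x (3, 1) = s := by
    have h := ht _ (hm 2 1)
    rw [Fin.sum_univ_four] at h
    exact h
  have q12 : x (0, 2) + x (1, 2) + x (2, 1) + x (3, 0) = s := by
    have h := ht _ (hm 2 2)
    rw [Fin.sum_univ_four] at h
    exact h
  funext p
  obtain ⟨i, r⟩ := p
  fin_cases i <;> fin_cases r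
  · rfl
  · rfl
  · rfl
  · rfl
  · rfl
  · show x (1, 2) = x (0, 0) + x (0, 1) + x (0, 2) + 2 * x (1, 0) + 2 * x (1, 1)
    linear_combination (norm := (ring_nf; reduce_mod_char)) 2 * q0 + q1
  · rfl
  · show x (2, 1) = 2 * x (0, 1) + x (0, 2) + 2 * x (1, 0) + x (1, 1) + x (2, 0)
    linear_combination (norm := (ring_nf; reduce_mod_char)) 2 * q0 + q3 + 2 * q4 + 2 * q5 + 2 * q7
  · show x (2, 2) = x (0, 0) + 2 * x (0, 1) + x (1, 0) + 2 * x (1, 1) + x (2, 0)
    linear_combination (norm := (ring_nf; reduce_mod_char)) q2 + 2 * q3 + q4 + q5 + q7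
  · show x (3, 0) = x (0, 0) + 2 * x (0, 1) + 2 * x (0, 2) + 2 * x (1, 0) + 2 * x (2, 0)
    linear_combination (norm := (ring_nf; reduce_mod_char)) q0 + q4
  · show x (3, 1) = x (0, 0) + x (0, 2) + x (1, 0) + x (1, 1) + 2 * x (2, 0)
    linear_combination (norm := (ring_nf; reduce_mod_char)) 2 * q0 + 2 * q3 + q4 + q5 + 2 * q7
  · show x (3, 2) = 2 * x (0, 0) + 2 * x (0, 1) + x (0, 2) + 2 * x (1, 1) + 2 * x (2, 0)
    linear_combination (norm := (ring_nf; reduce_mod_char)) 2 * q0 + 2 * q3 + q4 + 2 * q5 + q7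

theorem enc_mem (v : Coord) : enc v ∈ Cfsg.ternaryGolayCode := by
  obtain ⟨a, b, c, d, e, f⟩ := v
  refine ⟨-(a + b + c), fun i => ?_, fun t ht => ?_⟩
  · rw [show (∑ r : ZMod 3, enc (a, b, c, d, e, f) (i, r)) = _ from Fin.sum_univ_three _, neg_neg]
    fin_cases i <;> simp [enc] <;> ring_nf <;> reduce_mod_char
  · obtain ⟨u, w, rfl⟩ := Submodule.mem_span_pair.1 ht
    rw [Fin.sum_univ_four]
    have h3 : ∀ z : ZMod 3, z = 0 ∨ z = 1 ∨ z = 2 := by decide
    have e22 : (2 : ZMod 3) * 2 = 1 := by decide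
    have e12 : (1 : ZMod 3) + 2 = 0 := by decide
    have e11 : (1 : ZMod 3) + 1 = 2 := by decide
    have e21 : (2 : ZMod 3) + 1 = 0 := by decide
    have e2' : (2 : ZMod 3) + 2 = 1 := by decide
    rcases h3 u with rfl | rfl | rfl <;> rcases h3 w with rfl | rfl | rfl <;>
      simp only [Pi.add_apply, Pi.smul_apply, smul_eq_mul, Matrix.cons_val_zero, Matrix.cons_val_one, Matrix.cons_val,
        zero_mul, one_mul, mul_zero, mul_one, add_zero, zero_add, e22, e12, e11, e21, e2'] <;>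
      simp [enc] <;> ring_nf <;> reduce_mod_char <;> ring

theorem enc_injective : Function.Injective enc := by
  rintro ⟨a, b, c, d, e, f⟩ ⟨a', b', c', d', e', f'⟩ h
  have h0 := congrFun h (0, 0)
  have h1 := congrFun h (0, 1)
  have h2 := congrFun h (0, 2)
  have h3 := congrFun h (1, 0)
  have h4 := congrFun h (1, 1)
  have h5 := congrFun h (2, 0)
  simp [enc] at h0 h1 h2 h3 h4 h5
  simp [h0, h1, h2, h3, h4, h5]

theorem mem_iff {x : Cfsg.ArrayPt → ZMod 3} : x ∈ Cfsg.ternaryGolayCode ↔ ∃ v, enc v = x :=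
  ⟨fun h => ⟨_, (eq_enc h).symm⟩, fun ⟨v, hv⟩ => hv ▸ enc_mem v⟩

theorem dot_eq_zero (v w : Coord) : ∑ p, enc v p * enc w p = 0 := by
  obtain ⟨a, b, c, d, e, f⟩ := v
  obtain ⟨a', b', c', d', e', f'⟩ := w
  rw [Fintype.sum_prod_type, Fin.sum_univ_four]
  simp only [show ∀ g : ZMod 3 → ZMod 3, ∑ r, g r = g 0 + g 1 + g 2 from fun g => Fin.sum_univ_three g]
  simp [enc]
  ring_nf
  reduce_mod_char

end CfsgLib.TernaryCode
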